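import Cfsg.Agent.Lib.Helper5.SUAsch.Defs2
import Cfsg.Agent.Lib.Helper78.SURows.Arith
import Cfsg.Agent.Lib.Helper72.SURows.A6
import Cfsg.Agent.Lib.Helper72.SURows.A11
import Cfsg.Agent.Lib.Helper47.SURows.D1e
import Cfsg.Agent.Lib.Helper47.SURows.D1b
import Cfsg.Agent.Lib.Helper84.SUSmall.Common

set_option autoImplicit false

namespace Cfsg.Agent.Lib.Helper32.SU3

open Cfsg Cfsg.Geo Matrix Cfsg.Agent.Lib.Helper5.SUAsch
open Cfsg.Agent.Lib.Helper72.SURows Cfsg.Agent.Lib.Helper78.SURows Cfsg.Agent.Lib.Helper47.SURows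
open scoped Kronecker MatrixGroups

/-- ROW3 (hypothesis form) -/
theorem row3_of {F : Type*} [Field F] [Fintype F] (q : ℕ) (hF : Fintype.card F = q ^ 2) (hq : 3 ≤ q) (H : Subgroup (Matrix.GeneralLinearGroup (Fin 3) F)) (hH : Cfsg.Geo.IsMaximalIn (Cfsg.GU 3 F q ⊓ Cfsg.Geo.specialLinear (Fin 3) F) H)
    (h : URef 3 q H)
    (hA : ∀ (_ : Fintype.card F = 3 ^ 2) (K : Subalgebra F (Matrix (Fin 3) (Fin 3) F))
      (_ : IsFieldSubalgebra 3 K) (_ : IsAdjointClosedFor (hermForm 3 F 3) K),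
      ¬ IsMaximalIn (SUg 3 F 3) (subalgebraNormalizer K ⊓ SUg 3 F 3))
    (hB : ∀ (_ : Fintype.card F = 3 ^ 2) (F₀ : Subfield F) (P : GL (Fin 3) F)
      (_ : Fintype.card F = Nat.card F₀ ^ 2)
      (_ : IsFormRationalStructure (hermForm 3 F 3) F₀ 1 P),
      ∃ D : Fin 3 → Submodule F (Fin 3 → F),
        IsNondegenerateMDecomposition (hermForm 3 F 3) 1 D ∧
        subfieldSubgroup F₀ P ⊓ SUg 3 F 3 ≤ decompositionStabilizer D)
    (hC : ∀ (_ : Fintype.card F = 5 ^ 2) (K : Subalgebra F (Matrix (Fin 3) (Fin 3) F))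
      (_ : IsFieldSubalgebra 3 K) (_ : IsAdjointClosedFor (hermForm 3 F 5) K),
      ¬ IsMaximalIn (SUg 3 F 5) (subalgebraNormalizer K ⊓ SUg 3 F 5))
    (hD5 : ∀ (_ : Fintype.card F = 5 ^ 2) (D : Fin 3 → Submodule F (Fin 3 → F))
      (_ : IsNondegenerateMDecomposition (hermForm 3 F 5) 1 D),
      ¬ IsMaximalIn (SUg 3 F 5) (decompositionStabilizer D ⊓ SUg 3 F 5))
    (hE : ∀ (_ : Fintype.card F = 5 ^ 2) (F₀ : Subfield F) (P : GL (Fin 3) F)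
      (_ : Fintype.card F = Nat.card F₀ ^ 2)
      (_ : IsFormRationalStructure (hermForm 3 F 5) F₀ 1 P),
      ¬ IsMaximalIn (SUg 3 F 5) (subfieldSubgroup F₀ P ⊓ SUg 3 F 5))
    (hG : ∀ (_ : Fintype.card F = 5 ^ 2) (R : Subgroup (GL (Fin 3) F))
      (_ : IsSymplecticTypeGroup 3 R) (_ : ActsAbsolutelyIrreducibly (matrixSet R))
      (_ : R ≤ similarityGroup (hermForm 3 F 5)) (_ : Nat.card R = 27)
      (_ : Nat.card (Subgroup.center R) = 3),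
      ¬ IsMaximalIn (SUg 3 F 5) (subgroupNormalizer R ⊓ SUg 3 F 5)) :
    (∃ W : Submodule F (Fin 3 → F), W ≠ ⊥ ∧ Cfsg.Geo.IsTotallySingularFor (Cfsg.hermForm 3 F q) W ∧ H = Cfsg.Geo.subspaceStabilizer W ⊓ (Cfsg.GU 3 F q ⊓ Cfsg.Geo.specialLinear (Fin 3) F)) ∨
    (∃ W : Submodule F (Fin 3 → F), W ≠ ⊥ ∧ Cfsg.Geo.IsNondegenerateOn (Cfsg.hermForm 3 F q) W ∧ 2 * Module.finrank F W < 3 ∧ H = Cfsg.Geo.subspaceStabilizer W ⊓ (Cfsg.GU 3 F q ⊓ Cfsg.Geo.specialLinear (Fin 3) F)) ∨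
    (q ≠ 5 ∧ ∃ D : Fin 3 → Submodule F (Fin 3 → F), Cfsg.Geo.IsNondegenerateMDecomposition (Cfsg.hermForm 3 F q) 1 D ∧ H = Cfsg.Geo.decompositionStabilizer D ⊓ (Cfsg.GU 3 F q ⊓ Cfsg.Geo.specialLinear (Fin 3) F)) ∨
    (q ≠ 3 ∧ q ≠ 5 ∧ ∃ K : Subalgebra F (Matrix (Fin 3) (Fin 3) F), Cfsg.Geo.IsFieldSubalgebra 3 K ∧ Cfsg.Geo.IsAdjointClosedFor (Cfsg.hermForm 3 F q) K ∧ H = Cfsg.Geo.subalgebraNormalizer K ⊓ (Cfsg.GU 3 F q ⊓ Cfsg.Geo.specialLinear (Fin 3) F)) ∨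
    (∃ (F₀ : Subfield F) (r : ℕ) (P : Matrix.GeneralLinearGroup (Fin 3) F), r.Prime ∧ Odd r ∧ Fintype.card F = Nat.card F₀ ^ r ∧ Cfsg.Geo.IsFormRationalStructure (Cfsg.hermForm 3 F q) F₀ 1 P ∧ H = Cfsg.Geo.subfieldSubgroup F₀ P ⊓ (Cfsg.GU 3 F q ⊓ Cfsg.Geo.specialLinear (Fin 3) F)) ∨
    (Odd q ∧ 7 ≤ q ∧ ∃ (F₀ : Subfield F) (P : Matrix.GeneralLinearGroup (Fin 3) F), Fintype.card F = Nat.card F₀ ^ 2 ∧ Cfsg.Geo.IsFormRationalStructure (Cfsg.hermForm 3 F q) F₀ 1 P ∧ H = Cfsg.Geo.subfieldSubgroup F₀ P ⊓ (Cfsg.GU 3 F q ⊓ Cfsg.Geo.specialLinear (Fin 3) F)) ∨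
    (∃ (p : ℕ) (R : Subgroup (Matrix.GeneralLinearGroup (Fin 3) F)), p.Prime ∧ q = p ∧ p % 3 = 2 ∧ 11 ≤ p ∧ Cfsg.Geo.IsSymplecticTypeGroup 3 R ∧ Cfsg.Geo.ActsAbsolutelyIrreducibly (Cfsg.Geo.matrixSet R) ∧ R ≤ Cfsg.Geo.similarityGroup (Cfsg.hermForm 3 F q) ∧ Nat.card R = 27 ∧ Nat.card (Subgroup.center R) = 3 ∧ H = Cfsg.Geo.subgroupNormalizer R ⊓ (Cfsg.GU 3 F q ⊓ Cfsg.Geo.specialLinear (Fin 3) F)) ∨
    Cfsg.Geo.InUnitaryResidualClass H := by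
  rcases h with ⟨W, h0, h1, h⟩ | ⟨W, h0, h1, h2, h⟩ | ⟨t, k, D, hD, htk, hk2, h⟩ |
    ⟨k, D, hk, hD, hs, h⟩ | ⟨F₀, r, P, hr, ho, hc, hf, h⟩ | ⟨F₀, P, ho, hc, hf, h⟩ |
    ⟨F₀, P, ζ, he, hc, h0, h1, hf, ha, h⟩ | ⟨r, R, p, e, k, h1, h2, h3, h4, h5, h6, h7, h⟩ |
    ⟨r, K, hr, ho, hd, hK, ha, h⟩ | ⟨a, b, e, P, f₁, f₂, ha, hb, hab, hq2, h1, h2, h3, h⟩ |
    ⟨k, t, e, P, f₁, hk, ht, hn, hx, h1, h2, h3, h4⟩ | h
  · exact Or.inl ⟨W, h0, h1, h⟩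
  · exact Or.inr (Or.inl ⟨W, h0, h1, h2, h⟩)
  · have ht2 := hD.decomp.two_le
    have hkpos := hD.decomp.pos
    have htn : t ≤ 3 := by nlinarith
    interval_cases t
    · omega
    · obtain rfl : k = 1 := by omega
      by_cases hq5 : q = 5
      · subst hq5
        exact absurd (h ▸ hH) (hD5 hF D hD)
      · exact Or.inr (Or.inr (Or.inl ⟨hq5, D, hD, h⟩))
  · omega
  · exact Or.inr (Or.inr (Or.inr (Or.inr (Or.inl ⟨F₀, r, P, hr, ho, hc, hf, h⟩))))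
  · by_cases hq3 : q = 3
    · subst hq3
      obtain ⟨D, hD, hle⟩ := hB hF F₀ P hc hf
      refine Or.inr (Or.inr (Or.inl ⟨by norm_num, D, hD, ?_⟩))
      have hle' : H ≤ decompositionStabilizer D ⊓ SUg 3 F 3 := by
        rw [h]; exact le_inf hle inf_le_right
      rcases hH.2 (decompositionStabilizer D ⊓ SUg 3 F 3) hle' inf_le_right with h' | h'
      · exact h'.symm
      · have h'' : SUg 3 F 3 ≤ decompositionStabilizer D := by
          have h5 : decompositionStabilizer D ⊓ SUg 3 F 3 = SUg 3 F 3 := h'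
          rw [← h5]; exact inf_le_left
        exact absurd h'' (su_not_le_decomp hF (le_refl 3) (by norm_num) D hD.decomp)
    · by_cases hq5 : q = 5
      · subst hq5
        exact absurd (h ▸ hH) (hE hF F₀ P hc hf)
      · have h7 : 7 ≤ q := by
          obtain ⟨j, hj⟩ := ho
          omega
        exact Or.inr (Or.inr (Or.inr (Or.inr (Or.inr (Or.inl ⟨ho, h7, F₀, P, hc, hf, h⟩)))))
  · exact absurd he (by decide)
  · obtain ⟨rfl, rfl⟩ := prime_pow_eq_prime h1.prime (by norm_num : Nat.Prime 3) h7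
    rcases h6 with ⟨-, hz, -, hR⟩ | ⟨h, -⟩
    · rw [hz] at h5
      obtain ⟨hp, hch, e', rfl, he', hq', hdv, hnd, hmin⟩ := arith6 hF h5
      obtain ⟨hqp, hp3⟩ := ar3 hp he' hq' hdv hmin
      have hR27 : Nat.card R = 27 := by rw [hR]; norm_num
      have hp5 : p ≠ 5 := by
        rintro rfl
        subst hqp
        exact hG hF R h1 h2 h3 hR27 hz (h ▸ hH)
      have h11 : 11 ≤ p := by
        by_contra hlt
        have hp10 : p ≤ 10 := by omega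
        have hp3' : 3 ≤ p := by omega
        interval_cases p <;> first | omega | (exfalso; revert hp; decide)
      exact Or.inr (Or.inr (Or.inr (Or.inr (Or.inr (Or.inr (Or.inl
        ⟨p, R, hp, hqp, hp3, h11, h1, h2, h3, hR27, hz, h⟩))))))
    · omega
  · have hr3 : r = 3 := by
      have hle : r ≤ 3 := Nat.le_of_dvd (by norm_num) hd
      have h2 := hr.two_le
      interval_cases r <;> first | rfl | (exfalso; revert hd; decide) | (exfalso; revert ho; decide) | (exfalso; revert hr; decide)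
    subst hr3
    by_cases hq3 : q = 3
    · subst hq3
      exact absurd (h ▸ hH) (hA hF K hK ha)
    · by_cases hq5 : q = 5
      · subst hq5
        exact absurd (h ▸ hH) (hC hF K hK ha)
      · exact Or.inr (Or.inr (Or.inr (Or.inl ⟨hq3, hq5, K, hK, ha, h⟩)))
  · have han : a ≤ 3 := by nlinarith
    interval_cases a
    · omega
    · omega
  · have := pow_le_twelve hk ht (by norm_num) hn
    omega
  · exact Or.inr (Or.inr (Or.inr (Or.inr (Or.inr (Or.inr (Or.inr h))))))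

end Cfsg.Agent.Lib.Helper32.SU3
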